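import Cfsg.Agent.Lib.Helper35.ONM11.Data

set_option Elab.async false

namespace Cfsg.Agent.Lib.Helper35.ONM11

open Cfsg.Agent.Lib.Helper35

theorem e0c0 : allBelow (fun k => fe0 (Nat.add 0 k)) 42720 = true := by decide +kernel
theorem e0c1 : allBelow (fun k => fe0 (Nat.add 42720 k)) 42720 = true := by decide +kernel
theorem e0c2 : allBelow (fun k => fe0 (Nat.add 85440 k)) 37320 = true := by decide +kernel
theorem e1c0 : allBelow (fun k => fe1 (Nat.add 0 k)) 1378 = true := by decide +kernel
theorem e1c1 : allBelow (fun k => fe1 (Nat.add 1378 k)) 1378 = true := by decide +kernel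
theorem e1c2 : allBelow (fun k => fe1 (Nat.add 2756 k)) 1378 = true := by decide +kernel
theorem e1c3 : allBelow (fun k => fe1 (Nat.add 4134 k)) 1378 = true := by decide +kernel
theorem e1c4 : allBelow (fun k => fe1 (Nat.add 5512 k)) 1378 = true := by decide +kernel
theorem e1c5 : allBelow (fun k => fe1 (Nat.add 6890 k)) 1378 = true := by decide +kernel
theorem e1c6 : allBelow (fun k => fe1 (Nat.add 8268 k)) 1378 = true := by decide +kernel
theorem e1c7 : allBelow (fun k => fe1 (Nat.add 9646 k)) 1378 = true := by decide +kernel
theorem e1c8 : allBelow (fun k => fe1 (Nat.add 11024 k)) 1378 = true := by decide +kernel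
theorem e1c9 : allBelow (fun k => fe1 (Nat.add 12402 k)) 1378 = true := by decide +kernel
theorem e1c10 : allBelow (fun k => fe1 (Nat.add 13780 k)) 1378 = true := by decide +kernel
theorem e1c11 : allBelow (fun k => fe1 (Nat.add 15158 k)) 1378 = true := by decide +kernel
theorem e1c12 : allBelow (fun k => fe1 (Nat.add 16536 k)) 1378 = true := by decide +kernel
theorem e1c13 : allBelow (fun k => fe1 (Nat.add 17914 k)) 1378 = true := by decide +kernel
theorem e1c14 : allBelow (fun k => fe1 (Nat.add 19292 k)) 1378 = true := by decide +kernel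
theorem e1c15 : allBelow (fun k => fe1 (Nat.add 20670 k)) 1378 = true := by decide +kernel
theorem e1c16 : allBelow (fun k => fe1 (Nat.add 22048 k)) 1378 = true := by decide +kernel
theorem e1c17 : allBelow (fun k => fe1 (Nat.add 23426 k)) 1378 = true := by decide +kernel
theorem e1c18 : allBelow (fun k => fe1 (Nat.add 24804 k)) 1378 = true := by decide +kernel
theorem e1c19 : allBelow (fun k => fe1 (Nat.add 26182 k)) 1378 = true := by decide +kernel
theorem e1c20 : allBelow (fun k => fe1 (Nat.add 27560 k)) 1378 = true := by decide +kernel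
theorem e1c21 : allBelow (fun k => fe1 (Nat.add 28938 k)) 1378 = true := by decide +kernel
theorem e1c22 : allBelow (fun k => fe1 (Nat.add 30316 k)) 1378 = true := by decide +kernel
theorem e1c23 : allBelow (fun k => fe1 (Nat.add 31694 k)) 1378 = true := by decide +kernel
theorem e1c24 : allBelow (fun k => fe1 (Nat.add 33072 k)) 1378 = true := by decide +kernel

end Cfsg.Agent.Lib.Helper35.ONM11
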