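import Cfsg.Agent.Lib.Helper35.ONM11.Data

set_option Elab.async false

namespace Cfsg.Agent.Lib.Helper35.ONM11

open Cfsg.Agent.Lib.Helper35

theorem e1c25 : allBelow (fun k => fe1 (Nat.add 34450 k)) 1378 = true := by decide +kernel
theorem e1c26 : allBelow (fun k => fe1 (Nat.add 35828 k)) 1378 = true := by decide +kernel
theorem e1c27 : allBelow (fun k => fe1 (Nat.add 37206 k)) 1378 = true := by decide +kernel
theorem e1c28 : allBelow (fun k => fe1 (Nat.add 38584 k)) 1378 = true := by decide +kernel
theorem e1c29 : allBelow (fun k => fe1 (Nat.add 39962 k)) 1378 = true := by decide +kernel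
theorem e1c30 : allBelow (fun k => fe1 (Nat.add 41340 k)) 1378 = true := by decide +kernel
theorem e1c31 : allBelow (fun k => fe1 (Nat.add 42718 k)) 1378 = true := by decide +kernel
theorem e1c32 : allBelow (fun k => fe1 (Nat.add 44096 k)) 1378 = true := by decide +kernel
theorem e1c33 : allBelow (fun k => fe1 (Nat.add 45474 k)) 1378 = true := by decide +kernel
theorem e1c34 : allBelow (fun k => fe1 (Nat.add 46852 k)) 1378 = true := by decide +kernel
theorem e1c35 : allBelow (fun k => fe1 (Nat.add 48230 k)) 1378 = true := by decide +kernel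
theorem e1c36 : allBelow (fun k => fe1 (Nat.add 49608 k)) 1378 = true := by decide +kernel
theorem e1c37 : allBelow (fun k => fe1 (Nat.add 50986 k)) 1378 = true := by decide +kernel
theorem e1c38 : allBelow (fun k => fe1 (Nat.add 52364 k)) 1378 = true := by decide +kernel
theorem e1c39 : allBelow (fun k => fe1 (Nat.add 53742 k)) 1378 = true := by decide +kernel
theorem e1c40 : allBelow (fun k => fe1 (Nat.add 55120 k)) 1378 = true := by decide +kernel
theorem e1c41 : allBelow (fun k => fe1 (Nat.add 56498 k)) 1378 = true := by decide +kernel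
theorem e1c42 : allBelow (fun k => fe1 (Nat.add 57876 k)) 1378 = true := by decide +kernel
theorem e1c43 : allBelow (fun k => fe1 (Nat.add 59254 k)) 1378 = true := by decide +kernel
theorem e1c44 : allBelow (fun k => fe1 (Nat.add 60632 k)) 1378 = true := by decide +kernel
theorem e1c45 : allBelow (fun k => fe1 (Nat.add 62010 k)) 1378 = true := by decide +kernel
theorem e1c46 : allBelow (fun k => fe1 (Nat.add 63388 k)) 1378 = true := by decide +kernel
theorem e1c47 : allBelow (fun k => fe1 (Nat.add 64766 k)) 1378 = true := by decide +kernel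
theorem e1c48 : allBelow (fun k => fe1 (Nat.add 66144 k)) 1378 = true := by decide +kernel
theorem e1c49 : allBelow (fun k => fe1 (Nat.add 67522 k)) 1378 = true := by decide +kernel
theorem e1c50 : allBelow (fun k => fe1 (Nat.add 68900 k)) 1378 = true := by decide +kernel
theorem e1c51 : allBelow (fun k => fe1 (Nat.add 70278 k)) 1378 = true := by decide +kernel
theorem e1c52 : allBelow (fun k => fe1 (Nat.add 71656 k)) 1378 = true := by decide +kernel

end Cfsg.Agent.Lib.Helper35.ONM11
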