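import Cfsg.Agent.Lib.Helper35.ONM11.Data

set_option Elab.async false

namespace Cfsg.Agent.Lib.Helper35.ONM11

open Cfsg.Agent.Lib.Helper35

theorem rc97 : allBelow (fun k => fr (Nat.add 120086 k)) 1238 = true := by decide +kernel
theorem rc98 : allBelow (fun k => fr (Nat.add 121324 k)) 1238 = true := by decide +kernel
theorem rc99 : allBelow (fun k => fr (Nat.add 122562 k)) 198 = true := by decide +kernel

end Cfsg.Agent.Lib.Helper35.ONM11
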