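import Cfsg.Agent.Lib.Helper35.ONM11.Data

set_option Elab.async false

namespace Cfsg.Agent.Lib.Helper35.ONM11

open Cfsg.Agent.Lib.Helper35

theorem e1c81 : allBelow (fun k => fe1 (Nat.add 111618 k)) 1378 = true := by decide +kernel
theorem e1c82 : allBelow (fun k => fe1 (Nat.add 112996 k)) 1378 = true := by decide +kernel
theorem e1c83 : allBelow (fun k => fe1 (Nat.add 114374 k)) 1378 = true := by decide +kernel
theorem e1c84 : allBelow (fun k => fe1 (Nat.add 115752 k)) 1378 = true := by decide +kernel
theorem e1c85 : allBelow (fun k => fe1 (Nat.add 117130 k)) 1378 = true := by decide +kernel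
theorem e1c86 : allBelow (fun k => fe1 (Nat.add 118508 k)) 1378 = true := by decide +kernel
theorem e1c87 : allBelow (fun k => fe1 (Nat.add 119886 k)) 1378 = true := by decide +kernel
theorem e1c88 : allBelow (fun k => fe1 (Nat.add 121264 k)) 1378 = true := by decide +kernel
theorem e1c89 : allBelow (fun k => fe1 (Nat.add 122642 k)) 118 = true := by decide +kernel
theorem e2c0 : allBelow (fun k => fe2 (Nat.add 0 k)) 1378 = true := by decide +kernel
theorem e2c1 : allBelow (fun k => fe2 (Nat.add 1378 k)) 1378 = true := by decide +kernel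
theorem e2c2 : allBelow (fun k => fe2 (Nat.add 2756 k)) 1378 = true := by decide +kernel
theorem e2c3 : allBelow (fun k => fe2 (Nat.add 4134 k)) 1378 = true := by decide +kernel
theorem e2c4 : allBelow (fun k => fe2 (Nat.add 5512 k)) 1378 = true := by decide +kernel
theorem e2c5 : allBelow (fun k => fe2 (Nat.add 6890 k)) 1378 = true := by decide +kernel
theorem e2c6 : allBelow (fun k => fe2 (Nat.add 8268 k)) 1378 = true := by decide +kernel
theorem e2c7 : allBelow (fun k => fe2 (Nat.add 9646 k)) 1378 = true := by decide +kernel
theorem e2c8 : allBelow (fun k => fe2 (Nat.add 11024 k)) 1378 = true := by decide +kernel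
theorem e2c9 : allBelow (fun k => fe2 (Nat.add 12402 k)) 1378 = true := by decide +kernel
theorem e2c10 : allBelow (fun k => fe2 (Nat.add 13780 k)) 1378 = true := by decide +kernel
theorem e2c11 : allBelow (fun k => fe2 (Nat.add 15158 k)) 1378 = true := by decide +kernel
theorem e2c12 : allBelow (fun k => fe2 (Nat.add 16536 k)) 1378 = true := by decide +kernel
theorem e2c13 : allBelow (fun k => fe2 (Nat.add 17914 k)) 1378 = true := by decide +kernel
theorem e2c14 : allBelow (fun k => fe2 (Nat.add 19292 k)) 1378 = true := by decide +kernel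
theorem e2c15 : allBelow (fun k => fe2 (Nat.add 20670 k)) 1378 = true := by decide +kernel
theorem e2c16 : allBelow (fun k => fe2 (Nat.add 22048 k)) 1378 = true := by decide +kernel
theorem e2c17 : allBelow (fun k => fe2 (Nat.add 23426 k)) 1378 = true := by decide +kernel
theorem e2c18 : allBelow (fun k => fe2 (Nat.add 24804 k)) 1378 = true := by decide +kernel

end Cfsg.Agent.Lib.Helper35.ONM11
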