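import Cfsg.Agent.Lib.Helper35.ONM11.Data

set_option Elab.async false

namespace Cfsg.Agent.Lib.Helper35.ONM11

open Cfsg.Agent.Lib.Helper35

theorem e2c19 : allBelow (fun k => fe2 (Nat.add 26182 k)) 1378 = true := by decide +kernel
theorem e2c20 : allBelow (fun k => fe2 (Nat.add 27560 k)) 1378 = true := by decide +kernel
theorem e2c21 : allBelow (fun k => fe2 (Nat.add 28938 k)) 1378 = true := by decide +kernel
theorem e2c22 : allBelow (fun k => fe2 (Nat.add 30316 k)) 1378 = true := by decide +kernel
theorem e2c23 : allBelow (fun k => fe2 (Nat.add 31694 k)) 1378 = true := by decide +kernel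
theorem e2c24 : allBelow (fun k => fe2 (Nat.add 33072 k)) 1378 = true := by decide +kernel
theorem e2c25 : allBelow (fun k => fe2 (Nat.add 34450 k)) 1378 = true := by decide +kernel
theorem e2c26 : allBelow (fun k => fe2 (Nat.add 35828 k)) 1378 = true := by decide +kernel
theorem e2c27 : allBelow (fun k => fe2 (Nat.add 37206 k)) 1378 = true := by decide +kernel
theorem e2c28 : allBelow (fun k => fe2 (Nat.add 38584 k)) 1378 = true := by decide +kernel
theorem e2c29 : allBelow (fun k => fe2 (Nat.add 39962 k)) 1378 = true := by decide +kernel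
theorem e2c30 : allBelow (fun k => fe2 (Nat.add 41340 k)) 1378 = true := by decide +kernel
theorem e2c31 : allBelow (fun k => fe2 (Nat.add 42718 k)) 1378 = true := by decide +kernel
theorem e2c32 : allBelow (fun k => fe2 (Nat.add 44096 k)) 1378 = true := by decide +kernel
theorem e2c33 : allBelow (fun k => fe2 (Nat.add 45474 k)) 1378 = true := by decide +kernel
theorem e2c34 : allBelow (fun k => fe2 (Nat.add 46852 k)) 1378 = true := by decide +kernel
theorem e2c35 : allBelow (fun k => fe2 (Nat.add 48230 k)) 1378 = true := by decide +kernel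
theorem e2c36 : allBelow (fun k => fe2 (Nat.add 49608 k)) 1378 = true := by decide +kernel
theorem e2c37 : allBelow (fun k => fe2 (Nat.add 50986 k)) 1378 = true := by decide +kernel
theorem e2c38 : allBelow (fun k => fe2 (Nat.add 52364 k)) 1378 = true := by decide +kernel
theorem e2c39 : allBelow (fun k => fe2 (Nat.add 53742 k)) 1378 = true := by decide +kernel
theorem e2c40 : allBelow (fun k => fe2 (Nat.add 55120 k)) 1378 = true := by decide +kernel
theorem e2c41 : allBelow (fun k => fe2 (Nat.add 56498 k)) 1378 = true := by decide +kernel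
theorem e2c42 : allBelow (fun k => fe2 (Nat.add 57876 k)) 1378 = true := by decide +kernel
theorem e2c43 : allBelow (fun k => fe2 (Nat.add 59254 k)) 1378 = true := by decide +kernel
theorem e2c44 : allBelow (fun k => fe2 (Nat.add 60632 k)) 1378 = true := by decide +kernel
theorem e2c45 : allBelow (fun k => fe2 (Nat.add 62010 k)) 1378 = true := by decide +kernel
theorem e2c46 : allBelow (fun k => fe2 (Nat.add 63388 k)) 1378 = true := by decide +kernel

end Cfsg.Agent.Lib.Helper35.ONM11
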