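import Cfsg.Agent.Lib.Helper35.ONM11.Data

set_option Elab.async false

namespace Cfsg.Agent.Lib.Helper35.ONM11

open Cfsg.Agent.Lib.Helper35

theorem e2c47 : allBelow (fun k => fe2 (Nat.add 64766 k)) 1378 = true := by decide +kernel
theorem e2c48 : allBelow (fun k => fe2 (Nat.add 66144 k)) 1378 = true := by decide +kernel
theorem e2c49 : allBelow (fun k => fe2 (Nat.add 67522 k)) 1378 = true := by decide +kernel
theorem e2c50 : allBelow (fun k => fe2 (Nat.add 68900 k)) 1378 = true := by decide +kernel
theorem e2c51 : allBelow (fun k => fe2 (Nat.add 70278 k)) 1378 = true := by decide +kernel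
theorem e2c52 : allBelow (fun k => fe2 (Nat.add 71656 k)) 1378 = true := by decide +kernel
theorem e2c53 : allBelow (fun k => fe2 (Nat.add 73034 k)) 1378 = true := by decide +kernel
theorem e2c54 : allBelow (fun k => fe2 (Nat.add 74412 k)) 1378 = true := by decide +kernel
theorem e2c55 : allBelow (fun k => fe2 (Nat.add 75790 k)) 1378 = true := by decide +kernel
theorem e2c56 : allBelow (fun k => fe2 (Nat.add 77168 k)) 1378 = true := by decide +kernel
theorem e2c57 : allBelow (fun k => fe2 (Nat.add 78546 k)) 1378 = true := by decide +kernel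
theorem e2c58 : allBelow (fun k => fe2 (Nat.add 79924 k)) 1378 = true := by decide +kernel
theorem e2c59 : allBelow (fun k => fe2 (Nat.add 81302 k)) 1378 = true := by decide +kernel
theorem e2c60 : allBelow (fun k => fe2 (Nat.add 82680 k)) 1378 = true := by decide +kernel
theorem e2c61 : allBelow (fun k => fe2 (Nat.add 84058 k)) 1378 = true := by decide +kernel
theorem e2c62 : allBelow (fun k => fe2 (Nat.add 85436 k)) 1378 = true := by decide +kernel
theorem e2c63 : allBelow (fun k => fe2 (Nat.add 86814 k)) 1378 = true := by decide +kernel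
theorem e2c64 : allBelow (fun k => fe2 (Nat.add 88192 k)) 1378 = true := by decide +kernel
theorem e2c65 : allBelow (fun k => fe2 (Nat.add 89570 k)) 1378 = true := by decide +kernel
theorem e2c66 : allBelow (fun k => fe2 (Nat.add 90948 k)) 1378 = true := by decide +kernel
theorem e2c67 : allBelow (fun k => fe2 (Nat.add 92326 k)) 1378 = true := by decide +kernel
theorem e2c68 : allBelow (fun k => fe2 (Nat.add 93704 k)) 1378 = true := by decide +kernel
theorem e2c69 : allBelow (fun k => fe2 (Nat.add 95082 k)) 1378 = true := by decide +kernel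
theorem e2c70 : allBelow (fun k => fe2 (Nat.add 96460 k)) 1378 = true := by decide +kernel
theorem e2c71 : allBelow (fun k => fe2 (Nat.add 97838 k)) 1378 = true := by decide +kernel
theorem e2c72 : allBelow (fun k => fe2 (Nat.add 99216 k)) 1378 = true := by decide +kernel
theorem e2c73 : allBelow (fun k => fe2 (Nat.add 100594 k)) 1378 = true := by decide +kernel
theorem e2c74 : allBelow (fun k => fe2 (Nat.add 101972 k)) 1378 = true := by decide +kernel

end Cfsg.Agent.Lib.Helper35.ONM11
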