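import Cfsg.Agent.Lib.Helper35.ONM11.Data

set_option Elab.async false

namespace Cfsg.Agent.Lib.Helper35.ONM11

open Cfsg.Agent.Lib.Helper35

theorem e2c75 : allBelow (fun k => fe2 (Nat.add 103350 k)) 1378 = true := by decide +kernel
theorem e2c76 : allBelow (fun k => fe2 (Nat.add 104728 k)) 1378 = true := by decide +kernel
theorem e2c77 : allBelow (fun k => fe2 (Nat.add 106106 k)) 1378 = true := by decide +kernel
theorem e2c78 : allBelow (fun k => fe2 (Nat.add 107484 k)) 1378 = true := by decide +kernel
theorem e2c79 : allBelow (fun k => fe2 (Nat.add 108862 k)) 1378 = true := by decide +kernel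
theorem e2c80 : allBelow (fun k => fe2 (Nat.add 110240 k)) 1378 = true := by decide +kernel
theorem e2c81 : allBelow (fun k => fe2 (Nat.add 111618 k)) 1378 = true := by decide +kernel
theorem e2c82 : allBelow (fun k => fe2 (Nat.add 112996 k)) 1378 = true := by decide +kernel
theorem e2c83 : allBelow (fun k => fe2 (Nat.add 114374 k)) 1378 = true := by decide +kernel
theorem e2c84 : allBelow (fun k => fe2 (Nat.add 115752 k)) 1378 = true := by decide +kernel
theorem e2c85 : allBelow (fun k => fe2 (Nat.add 117130 k)) 1378 = true := by decide +kernel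
theorem e2c86 : allBelow (fun k => fe2 (Nat.add 118508 k)) 1378 = true := by decide +kernel
theorem e2c87 : allBelow (fun k => fe2 (Nat.add 119886 k)) 1378 = true := by decide +kernel
theorem e2c88 : allBelow (fun k => fe2 (Nat.add 121264 k)) 1378 = true := by decide +kernel
theorem e2c89 : allBelow (fun k => fe2 (Nat.add 122642 k)) 118 = true := by decide +kernel
theorem rc0 : allBelow (fun k => fr (Nat.add 0 k)) 1238 = true := by decide +kernel
theorem rc1 : allBelow (fun k => fr (Nat.add 1238 k)) 1238 = true := by decide +kernel
theorem rc2 : allBelow (fun k => fr (Nat.add 2476 k)) 1238 = true := by decide +kernel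
theorem rc3 : allBelow (fun k => fr (Nat.add 3714 k)) 1238 = true := by decide +kernel
theorem rc4 : allBelow (fun k => fr (Nat.add 4952 k)) 1238 = true := by decide +kernel
theorem rc5 : allBelow (fun k => fr (Nat.add 6190 k)) 1238 = true := by decide +kernel
theorem rc6 : allBelow (fun k => fr (Nat.add 7428 k)) 1238 = true := by decide +kernel
theorem rc7 : allBelow (fun k => fr (Nat.add 8666 k)) 1238 = true := by decide +kernel
theorem rc8 : allBelow (fun k => fr (Nat.add 9904 k)) 1238 = true := by decide +kernel
theorem rc9 : allBelow (fun k => fr (Nat.add 11142 k)) 1238 = true := by decide +kernel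
theorem rc10 : allBelow (fun k => fr (Nat.add 12380 k)) 1238 = true := by decide +kernel
theorem rc11 : allBelow (fun k => fr (Nat.add 13618 k)) 1238 = true := by decide +kernel
theorem rc12 : allBelow (fun k => fr (Nat.add 14856 k)) 1238 = true := by decide +kernel

end Cfsg.Agent.Lib.Helper35.ONM11
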