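import Cfsg.Agent.Lib.Helper35.ONM11.Data

set_option Elab.async false

namespace Cfsg.Agent.Lib.Helper35.ONM11

open Cfsg.Agent.Lib.Helper35

theorem rc13 : allBelow (fun k => fr (Nat.add 16094 k)) 1238 = true := by decide +kernel
theorem rc14 : allBelow (fun k => fr (Nat.add 17332 k)) 1238 = true := by decide +kernel
theorem rc15 : allBelow (fun k => fr (Nat.add 18570 k)) 1238 = true := by decide +kernel
theorem rc16 : allBelow (fun k => fr (Nat.add 19808 k)) 1238 = true := by decide +kernel
theorem rc17 : allBelow (fun k => fr (Nat.add 21046 k)) 1238 = true := by decide +kernel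
theorem rc18 : allBelow (fun k => fr (Nat.add 22284 k)) 1238 = true := by decide +kernel
theorem rc19 : allBelow (fun k => fr (Nat.add 23522 k)) 1238 = true := by decide +kernel
theorem rc20 : allBelow (fun k => fr (Nat.add 24760 k)) 1238 = true := by decide +kernel
theorem rc21 : allBelow (fun k => fr (Nat.add 25998 k)) 1238 = true := by decide +kernel
theorem rc22 : allBelow (fun k => fr (Nat.add 27236 k)) 1238 = true := by decide +kernel
theorem rc23 : allBelow (fun k => fr (Nat.add 28474 k)) 1238 = true := by decide +kernel
theorem rc24 : allBelow (fun k => fr (Nat.add 29712 k)) 1238 = true := by decide +kernel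
theorem rc25 : allBelow (fun k => fr (Nat.add 30950 k)) 1238 = true := by decide +kernel
theorem rc26 : allBelow (fun k => fr (Nat.add 32188 k)) 1238 = true := by decide +kernel
theorem rc27 : allBelow (fun k => fr (Nat.add 33426 k)) 1238 = true := by decide +kernel
theorem rc28 : allBelow (fun k => fr (Nat.add 34664 k)) 1238 = true := by decide +kernel
theorem rc29 : allBelow (fun k => fr (Nat.add 35902 k)) 1238 = true := by decide +kernel
theorem rc30 : allBelow (fun k => fr (Nat.add 37140 k)) 1238 = true := by decide +kernel
theorem rc31 : allBelow (fun k => fr (Nat.add 38378 k)) 1238 = true := by decide +kernel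
theorem rc32 : allBelow (fun k => fr (Nat.add 39616 k)) 1238 = true := by decide +kernel
theorem rc33 : allBelow (fun k => fr (Nat.add 40854 k)) 1238 = true := by decide +kernel
theorem rc34 : allBelow (fun k => fr (Nat.add 42092 k)) 1238 = true := by decide +kernel
theorem rc35 : allBelow (fun k => fr (Nat.add 43330 k)) 1238 = true := by decide +kernel
theorem rc36 : allBelow (fun k => fr (Nat.add 44568 k)) 1238 = true := by decide +kernel
theorem rc37 : allBelow (fun k => fr (Nat.add 45806 k)) 1238 = true := by decide +kernel
theorem rc38 : allBelow (fun k => fr (Nat.add 47044 k)) 1238 = true := by decide +kernel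
theorem rc39 : allBelow (fun k => fr (Nat.add 48282 k)) 1238 = true := by decide +kernel
theorem rc40 : allBelow (fun k => fr (Nat.add 49520 k)) 1238 = true := by decide +kernel

end Cfsg.Agent.Lib.Helper35.ONM11
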