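import Cfsg.Agent.Lib.Helper35.ONM11.Data

set_option Elab.async false

namespace Cfsg.Agent.Lib.Helper35.ONM11

open Cfsg.Agent.Lib.Helper35

theorem rc41 : allBelow (fun k => fr (Nat.add 50758 k)) 1238 = true := by decide +kernel
theorem rc42 : allBelow (fun k => fr (Nat.add 51996 k)) 1238 = true := by decide +kernel
theorem rc43 : allBelow (fun k => fr (Nat.add 53234 k)) 1238 = true := by decide +kernel
theorem rc44 : allBelow (fun k => fr (Nat.add 54472 k)) 1238 = true := by decide +kernel
theorem rc45 : allBelow (fun k => fr (Nat.add 55710 k)) 1238 = true := by decide +kernel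
theorem rc46 : allBelow (fun k => fr (Nat.add 56948 k)) 1238 = true := by decide +kernel
theorem rc47 : allBelow (fun k => fr (Nat.add 58186 k)) 1238 = true := by decide +kernel
theorem rc48 : allBelow (fun k => fr (Nat.add 59424 k)) 1238 = true := by decide +kernel
theorem rc49 : allBelow (fun k => fr (Nat.add 60662 k)) 1238 = true := by decide +kernel
theorem rc50 : allBelow (fun k => fr (Nat.add 61900 k)) 1238 = true := by decide +kernel
theorem rc51 : allBelow (fun k => fr (Nat.add 63138 k)) 1238 = true := by decide +kernel
theorem rc52 : allBelow (fun k => fr (Nat.add 64376 k)) 1238 = true := by decide +kernel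
theorem rc53 : allBelow (fun k => fr (Nat.add 65614 k)) 1238 = true := by decide +kernel
theorem rc54 : allBelow (fun k => fr (Nat.add 66852 k)) 1238 = true := by decide +kernel
theorem rc55 : allBelow (fun k => fr (Nat.add 68090 k)) 1238 = true := by decide +kernel
theorem rc56 : allBelow (fun k => fr (Nat.add 69328 k)) 1238 = true := by decide +kernel
theorem rc57 : allBelow (fun k => fr (Nat.add 70566 k)) 1238 = true := by decide +kernel
theorem rc58 : allBelow (fun k => fr (Nat.add 71804 k)) 1238 = true := by decide +kernel
theorem rc59 : allBelow (fun k => fr (Nat.add 73042 k)) 1238 = true := by decide +kernel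
theorem rc60 : allBelow (fun k => fr (Nat.add 74280 k)) 1238 = true := by decide +kernel
theorem rc61 : allBelow (fun k => fr (Nat.add 75518 k)) 1238 = true := by decide +kernel
theorem rc62 : allBelow (fun k => fr (Nat.add 76756 k)) 1238 = true := by decide +kernel
theorem rc63 : allBelow (fun k => fr (Nat.add 77994 k)) 1238 = true := by decide +kernel
theorem rc64 : allBelow (fun k => fr (Nat.add 79232 k)) 1238 = true := by decide +kernel
theorem rc65 : allBelow (fun k => fr (Nat.add 80470 k)) 1238 = true := by decide +kernel
theorem rc66 : allBelow (fun k => fr (Nat.add 81708 k)) 1238 = true := by decide +kernel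
theorem rc67 : allBelow (fun k => fr (Nat.add 82946 k)) 1238 = true := by decide +kernel
theorem rc68 : allBelow (fun k => fr (Nat.add 84184 k)) 1238 = true := by decide +kernel

end Cfsg.Agent.Lib.Helper35.ONM11
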