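import Cfsg.Agent.Lib.Helper35.ONM11.Data

set_option Elab.async false

namespace Cfsg.Agent.Lib.Helper35.ONM11

open Cfsg.Agent.Lib.Helper35

theorem rc69 : allBelow (fun k => fr (Nat.add 85422 k)) 1238 = true := by decide +kernel
theorem rc70 : allBelow (fun k => fr (Nat.add 86660 k)) 1238 = true := by decide +kernel
theorem rc71 : allBelow (fun k => fr (Nat.add 87898 k)) 1238 = true := by decide +kernel
theorem rc72 : allBelow (fun k => fr (Nat.add 89136 k)) 1238 = true := by decide +kernel
theorem rc73 : allBelow (fun k => fr (Nat.add 90374 k)) 1238 = true := by decide +kernel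
theorem rc74 : allBelow (fun k => fr (Nat.add 91612 k)) 1238 = true := by decide +kernel
theorem rc75 : allBelow (fun k => fr (Nat.add 92850 k)) 1238 = true := by decide +kernel
theorem rc76 : allBelow (fun k => fr (Nat.add 94088 k)) 1238 = true := by decide +kernel
theorem rc77 : allBelow (fun k => fr (Nat.add 95326 k)) 1238 = true := by decide +kernel
theorem rc78 : allBelow (fun k => fr (Nat.add 96564 k)) 1238 = true := by decide +kernel
theorem rc79 : allBelow (fun k => fr (Nat.add 97802 k)) 1238 = true := by decide +kernel
theorem rc80 : allBelow (fun k => fr (Nat.add 99040 k)) 1238 = true := by decide +kernel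
theorem rc81 : allBelow (fun k => fr (Nat.add 100278 k)) 1238 = true := by decide +kernel
theorem rc82 : allBelow (fun k => fr (Nat.add 101516 k)) 1238 = true := by decide +kernel
theorem rc83 : allBelow (fun k => fr (Nat.add 102754 k)) 1238 = true := by decide +kernel
theorem rc84 : allBelow (fun k => fr (Nat.add 103992 k)) 1238 = true := by decide +kernel
theorem rc85 : allBelow (fun k => fr (Nat.add 105230 k)) 1238 = true := by decide +kernel
theorem rc86 : allBelow (fun k => fr (Nat.add 106468 k)) 1238 = true := by decide +kernel
theorem rc87 : allBelow (fun k => fr (Nat.add 107706 k)) 1238 = true := by decide +kernel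
theorem rc88 : allBelow (fun k => fr (Nat.add 108944 k)) 1238 = true := by decide +kernel
theorem rc89 : allBelow (fun k => fr (Nat.add 110182 k)) 1238 = true := by decide +kernel
theorem rc90 : allBelow (fun k => fr (Nat.add 111420 k)) 1238 = true := by decide +kernel
theorem rc91 : allBelow (fun k => fr (Nat.add 112658 k)) 1238 = true := by decide +kernel
theorem rc92 : allBelow (fun k => fr (Nat.add 113896 k)) 1238 = true := by decide +kernel
theorem rc93 : allBelow (fun k => fr (Nat.add 115134 k)) 1238 = true := by decide +kernel
theorem rc94 : allBelow (fun k => fr (Nat.add 116372 k)) 1238 = true := by decide +kernel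
theorem rc95 : allBelow (fun k => fr (Nat.add 117610 k)) 1238 = true := by decide +kernel
theorem rc96 : allBelow (fun k => fr (Nat.add 118848 k)) 1238 = true := by decide +kernel

end Cfsg.Agent.Lib.Helper35.ONM11
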